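import Mathlib

set_option autoImplicit false

/-! # A fixed vector: the abstract computation behind `S4`-sections -/

namespace Cfsg.Agent.Lib.Helper47.S4Inv

/-- Let `E` be an elementary abelian 2-subgroup normalised by `x` and `s`, `x ^ 3 = 1`, `s` inverts
`x`, `s` a 2-element, `x` not centralising `E`. Then some `1 ≠ w ∈ E` commutes with `s` and the
product of its three `x`-conjugates is `1`. -/
theorem exists_fixed_vec {Y : Type*} [Group Y] (E : Subgroup Y) (x s : Y)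
    (hcomm : ∀ a ∈ E, ∀ b ∈ E, a * b = b * a) (hsq : ∀ a ∈ E, a * a = 1)
    (hxE : ∀ a ∈ E, x * a * x⁻¹ ∈ E) (hxE' : ∀ a ∈ E, x⁻¹ * a * x ∈ E)
    (hsE : ∀ a ∈ E, s * a * s⁻¹ ∈ E)
    (hsx : s * x * s⁻¹ = x⁻¹) (hx3 : x ^ 3 = 1) (k : ℕ) (hs : s ^ (2 ^ k) = 1)
    (e : Y) (he : e ∈ E) (hxe : x * e * x⁻¹ ≠ e) :
    ∃ w ∈ E, w ≠ 1 ∧ s * w = w * s ∧ w * (x * w * x⁻¹) * (x⁻¹ * w * x) = 1 := by
  have hinv : ∀ a ∈ E, a⁻¹ = a := fun a ha => inv_eq_of_mul_eq_one_left (hsq a ha)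
  have hxx : x * x = x⁻¹ := by
    have : x * x * x = 1 := by rw [← hx3, pow_succ, pow_succ, pow_one]
    exact eq_inv_of_mul_eq_one_left this
  have hsx' : s⁻¹ * x * s = x⁻¹ := by
    have h1 : x = s⁻¹ * x⁻¹ * s := by rw [← hsx]; group
    have h2 : x⁻¹ = s⁻¹ * x * s := by
      conv_lhs => rw [h1]
      group
    exact h2.symm
  -- the subgroup killed by `1 + x + x²`
  let E₁ : Subgroup Y :=
    { carrier := {w | w ∈ E ∧ w * (x * w * x⁻¹) * (x⁻¹ * w * x) = 1}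
      mul_mem' := by
        rintro a b ⟨ha, ha1⟩ ⟨hb, hb1⟩
        refine ⟨E.mul_mem ha hb, ?_⟩
        have e1 : x * (a * b) * x⁻¹ = (x * a * x⁻¹) * (x * b * x⁻¹) := by group
        have e2 : x⁻¹ * (a * b) * x = (x⁻¹ * a * x) * (x⁻¹ * b * x) := by group
        rw [e1, e2]
        set a1 := x * a * x⁻¹
        set a2 := x⁻¹ * a * x
        set b1 := x * b * x⁻¹
        set b2 := x⁻¹ * b * x
        have ha1E : a1 ∈ E := hxE a ha
        have ha2E : a2 ∈ E := hxE' a ha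
        have hb1E : b1 ∈ E := hxE b hb
        have hb2E : b2 ∈ E := hxE' b hb
        calc a * b * (a1 * b1) * (a2 * b2) = a * (b * a1) * (b1 * a2) * b2 := by group
          _ = a * (a1 * b) * (a2 * b1) * b2 := by rw [hcomm b hb a1 ha1E, hcomm b1 hb1E a2 ha2E]
          _ = a * a1 * (b * a2) * b1 * b2 := by group
          _ = a * a1 * (a2 * b) * b1 * b2 := by rw [hcomm b hb a2 ha2E]
          _ = (a * a1 * a2) * (b * b1 * b2) := by group
          _ = 1 := by rw [ha1, hb1, one_mul]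
      one_mem' := ⟨E.one_mem, by group⟩
      inv_mem' := by
        rintro a ⟨ha, ha1⟩
        show a⁻¹ ∈ E ∧ a⁻¹ * (x * a⁻¹ * x⁻¹) * (x⁻¹ * a⁻¹ * x) = 1
        rw [hinv a ha]
        exact ⟨ha, ha1⟩ }
  have hE₁ : ∀ w, w ∈ E₁ ↔ w ∈ E ∧ w * (x * w * x⁻¹) * (x⁻¹ * w * x) = 1 := fun w => Iff.rfl
  -- `E₁` is invariant under `s`
  have hsE₁ : ∀ w ∈ E₁, s * w * s⁻¹ ∈ E₁ := by
    rintro w ⟨hw, hw1⟩
    refine ⟨hsE w hw, ?_⟩
    have e1 : s * w * s⁻¹ * (x * (s * w * s⁻¹) * x⁻¹) * (x⁻¹ * (s * w * s⁻¹) * x) =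
        s * (w * ((s⁻¹ * x * s) * w * (s⁻¹ * x * s)⁻¹) * ((s⁻¹ * x * s)⁻¹ * w * (s⁻¹ * x * s))) * s⁻¹ := by
      group
    have e2 : w * (x⁻¹ * w * x) * (x * w * x⁻¹) = 1 := by
      rw [mul_assoc w, hcomm _ (hxE' w hw) _ (hxE w hw), ← mul_assoc w, hw1]
    rw [e1, hsx', inv_inv, e2]
    group
  have hpowE₁ : ∀ (n : ℕ), ∀ w ∈ E₁, s ^ n * w * (s ^ n)⁻¹ ∈ E₁ := by
    intro n
    induction n with
    | zero => intro w hw; simpa using hw
    | succ n ih =>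
      intro w hw
      have := hsE₁ _ (ih w hw)
      have e : s ^ (n + 1) * w * (s ^ (n + 1))⁻¹ = s * (s ^ n * w * (s ^ n)⁻¹) * s⁻¹ := by
        rw [pow_succ']; group
      rw [e]; exact this
  -- a nontrivial element of `E₁`
  have hw0 : e * (x * e * x⁻¹) ∈ E₁ := by
    refine ⟨E.mul_mem he (hxE e he), ?_⟩
    have e1 : x * (e * (x * e * x⁻¹)) * x⁻¹ = (x * e * x⁻¹) * ((x * x) * e * (x * x)⁻¹) := by group
    have e2 : x⁻¹ * (e * (x * e * x⁻¹)) * x = (x⁻¹ * e * x) * e := by group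
    rw [e1, e2, hxx, inv_inv]
    set a1 := x * e * x⁻¹
    set a2 := x⁻¹ * e * x
    have ha1E : a1 ∈ E := hxE e he
    have ha2E : a2 ∈ E := hxE' e he
    calc e * a1 * (a1 * a2) * (a2 * e) = e * (a1 * a1) * (a2 * a2) * e := by group
      _ = 1 := by rw [hsq a1 ha1E, hsq a2 ha2E, mul_one, mul_one, hsq e he]
  have hw0ne : e * (x * e * x⁻¹) ≠ 1 := by
    intro h
    apply hxe
    have : x * e * x⁻¹ = e⁻¹ := (eq_inv_of_mul_eq_one_right h)
    rw [this, hinv e he]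
  -- descending induction
  have key : ∀ j, j ≤ k → ∃ w ∈ E₁, w ≠ 1 ∧ s ^ (2 ^ (k - j)) * w = w * s ^ (2 ^ (k - j)) := by
    intro j
    induction j with
    | zero =>
      intro _
      exact ⟨_, hw0, hw0ne, by rw [Nat.sub_zero, hs, one_mul, mul_one]⟩
    | succ j ih =>
      intro hj
      obtain ⟨w, hw, hw1, hwc⟩ := ih (by omega)
      set u := s ^ (2 ^ (k - (j + 1))) with hu
      have huu : u * u = s ^ (2 ^ (k - j)) := by
        rw [hu, ← pow_add]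
        congr 1
        have : k - j = (k - (j + 1)) + 1 := by omega
        rw [this, pow_succ]
        ring
      have hwE : w ∈ E := hw.1
      have huw : u * w * u⁻¹ ∈ E₁ := hpowE₁ _ w hw
      by_cases h1 : w * (u * w * u⁻¹) = 1
      · refine ⟨w, hw, hw1, ?_⟩
        have h2 : u * w * u⁻¹ = w⁻¹ := eq_inv_of_mul_eq_one_right h1
        rw [hinv w hwE] at h2
        calc u * w = (u * w * u⁻¹) * u := by group
          _ = w * u := by rw [h2]
      · refine ⟨_, E₁.mul_mem hw huw, h1, ?_⟩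
        have h2 : (u * u) * w * (u * u)⁻¹ = w := by
          rw [huu, hwc]; group
        have h3 : u * (w * (u * w * u⁻¹)) * u⁻¹ = w * (u * w * u⁻¹) := by
          calc u * (w * (u * w * u⁻¹)) * u⁻¹ = (u * w * u⁻¹) * ((u * u) * w * (u * u)⁻¹) := by group
            _ = (u * w * u⁻¹) * w := by rw [h2]
            _ = w * (u * w * u⁻¹) := hcomm _ huw.1 _ hwE
        calc u * (w * (u * w * u⁻¹)) = (u * (w * (u * w * u⁻¹)) * u⁻¹) * u := by group
          _ = w * (u * w * u⁻¹) * u := by rw [h3]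
  obtain ⟨w, hw, hw1, hwc⟩ := key k le_rfl
  rw [Nat.sub_self, pow_zero, pow_one] at hwc
  exact ⟨w, hw.1, hw1, hwc, hw.2⟩

end Cfsg.Agent.Lib.Helper47.S4Inv
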