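import Mathlib
import Cfsg.Prelude.Def_LocalEven
import Cfsg.Agent.Lib.Helper50.Involves
import Cfsg.Agent.Lib.Helper61.S4Config
import Cfsg.Agent.Lib.Helper1.Coprime2
import Cfsg.Agent.Lib.Helper47.Frat2
import Cfsg.Agent.Lib.Helper47.S4Inv.Vec

set_option autoImplicit false
set_option linter.unusedVariables false
set_option linter.unusedSectionVars false

/-! # `S4` is involved in `G` if a 2-element inverts a 3-element acting nontrivially on a 2-subgroup -/

namespace Cfsg.Agent.Lib.Helper47.S4Inv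

open Cfsg Subgroup Cfsg.Agent.Lib.Helper47
open scoped commutatorElement

variable {G : Type*} [Group G] [Finite G]

/-- coprime action trivial on the Frattini quotient is trivial -/
theorem le_centralizer_of_comm_le_frat {P T : Subgroup G}
    (hTP : T ≤ normalizer (P : Set G)) (hcop : (Nat.card T).Coprime (Nat.card P))
    (hsolv : Group.IsSolvable P) (h : ⁅P, T⁆ ≤ (frattini ↥P).map P.subtype) :
    T ≤ centralizer (P : Set G) := by
  have h1 := Cfsg.Agent.Lib.Helper1.commutator_sup_centralizer T P hTP hcop (Or.inr hsolv)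
  have hΦ : (frattini ↥P).map P.subtype ≤ P := map_subtype_le _
  have h2 : (P ⊓ centralizer (T : Set G)) ⊔ (frattini ↥P).map P.subtype = P := by
    apply le_antisymm (sup_le inf_le_left hΦ)
    conv_lhs => rw [← h1]
    exact sup_le (h.trans le_sup_right) le_sup_left
  have h3 : ((P ⊓ centralizer (T : Set G)).subgroupOf P) ⊔ frattini ↥P = ⊤ := by
    have h4 : ((P ⊓ centralizer (T : Set G)) ⊔ (frattini ↥P).map P.subtype).subgroupOf P =
        P.subgroupOf P := by rw [h2]
    rw [subgroupOf_sup inf_le_left hΦ, subgroupOf_self] at h4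
    have h5 : ((frattini ↥P).map P.subtype).subgroupOf P = frattini ↥P :=
      comap_map_eq_self_of_injective (subtype_injective P) _
    rwa [h5] at h4
  have h6 := frattini_nongenerating h3
  rw [subgroupOf_eq_top] at h6
  exact le_centralizer_iff.1 (h6.trans inf_le_right)

/-- an element of `N(T)` acting trivially on `T/Φ(T)`: so do its powers -/
theorem comm_zpowers_le_frat (T : Subgroup G) (x : G) (hx : x ∈ normalizer (T : Set G))
    (h : ∀ t ∈ T, x * t * x⁻¹ * t⁻¹ ∈ frattiniOf T) : ⁅T, zpowers x⁆ ≤ frattiniOf T := by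
  have hN := normalizer_le_normalizer_frattiniOf T
  let K : Subgroup G :=
    { carrier := {g | g ∈ normalizer (T : Set G) ∧ ∀ t ∈ T, g * t * g⁻¹ * t⁻¹ ∈ frattiniOf T}
      mul_mem' := by
        rintro a b ⟨ha, ha1⟩ ⟨hb, hb1⟩
        refine ⟨mul_mem ha hb, fun t ht => ?_⟩
        have e : a * b * t * (a * b)⁻¹ * t⁻¹ = (a * (b * t * b⁻¹ * t⁻¹) * a⁻¹) * (a * t * a⁻¹ * t⁻¹) := by
          group
        rw [e]
        exact mul_mem (conj_mem_of_mem_normalizer (hN ha) (hb1 t ht)) (ha1 t ht)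
      one_mem' := ⟨one_mem _, fun t ht => by simp⟩
      inv_mem' := by
        rintro a ⟨ha, ha1⟩
        refine ⟨inv_mem ha, fun t ht => ?_⟩
        have e : a⁻¹ * t * a⁻¹⁻¹ * t⁻¹ = a⁻¹ * (a * t * a⁻¹ * t⁻¹)⁻¹ * a := by group
        rw [e]
        exact conj_mem_of_mem_normalizer' (hN ha) (inv_mem (ha1 t ht)) }
  have hxK : zpowers x ≤ K := by
    rw [zpowers_le]
    exact ⟨hx, h⟩
  rw [commutator_le]
  intro t ht g hg
  have h1 := (hxK hg).2 t ht
  have e : ⁅t, g⁆ = (g * t * g⁻¹ * t⁻¹)⁻¹ := by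
    rw [commutatorElement_def]; group
  rw [e]
  exact inv_mem h1

theorem involves_s4_of_pair (T : Subgroup G) (hT : IsPGroup 2 T) (x s : G)
    (hx : x ∈ normalizer (T : Set G)) (hs : s ∈ normalizer (T : Set G)) (hsx : s * x * s⁻¹ = x⁻¹)
    (hxC : x ∉ centralizer (T : Set G)) (hx3 : x ^ 3 ∈ centralizer (T : Set G))
    (hxo : ∃ k, orderOf x = 3 ^ k) (hso : ∃ k, orderOf s = 2 ^ k) :
    Involves (Equiv.Perm (Fin 4)) G := by
  have : Fact (Nat.Prime 2) := ⟨Nat.prime_two⟩
  have : Fact (Nat.Prime 3) := ⟨Nat.prime_three⟩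
  obtain ⟨kx, hkx⟩ := hxo
  obtain ⟨ks, hks⟩ := hso
  set Φ := frattiniOf T with hΦ
  have hΦT : Φ ≤ T := frattiniOf_le T
  have hN : normalizer (T : Set G) ≤ normalizer (Φ : Set G) := normalizer_le_normalizer_frattiniOf T
  set X3 := zpowers (x ^ 3) with hX3
  set Z := Φ ⊔ X3 with hZ
  set M := normalizer (Z : Set G) with hM
  -- normalisers
  have hxX3 : x ∈ normalizer (X3 : Set G) := by
    rw [mem_normalizer_iff_map_conj_eq, hX3, MonoidHom.map_zpowers]
    congr 1
    show x * x ^ 3 * x⁻¹ = x ^ 3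
    rw [← pow_succ', pow_succ, mul_inv_cancel_right]
  have hsX3 : s ∈ normalizer (X3 : Set G) := by
    rw [mem_normalizer_iff_map_conj_eq, hX3, MonoidHom.map_zpowers]
    show zpowers (s * x ^ 3 * s⁻¹) = zpowers (x ^ 3)
    rw [← conj_pow, hsx, inv_pow, zpowers_inv]
  have hTX3 : T ≤ normalizer (X3 : Set G) := by
    intro t ht
    rw [mem_normalizer_iff_map_conj_eq, hX3, MonoidHom.map_zpowers]
    congr 1
    show t * x ^ 3 * t⁻¹ = x ^ 3
    rw [mem_centralizer_iff] at hx3
    rw [hx3 t ht, mul_inv_cancel_right]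
  have hxM : x ∈ M := normalizer_inf_normalizer_le_normalizer_sup Φ X3 ⟨hN hx, hxX3⟩
  have hsM : s ∈ M := normalizer_inf_normalizer_le_normalizer_sup Φ X3 ⟨hN hs, hsX3⟩
  have hTM : T ≤ M := fun t ht =>
    normalizer_inf_normalizer_le_normalizer_sup Φ X3 ⟨hN (Subgroup.le_normalizer ht), hTX3 ht⟩
  -- `T ⊓ Z ≤ Φ`
  have hX3p : IsPGroup 3 X3 := by
    have h1 : IsPGroup 3 (zpowers x) := IsPGroup.of_card (n := kx) (by rw [Nat.card_zpowers, hkx])
    exact h1.to_le (zpowers_le.2 (pow_mem (mem_zpowers x) 3))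
  have hTZ : ∀ t ∈ T, t ∈ Z → t ∈ Φ := by
    intro t ht htZ
    have hX3N : X3 ≤ normalizer (Φ : Set G) := by
      rw [hX3, zpowers_le]
      exact hN (pow_mem hx 3)
    obtain ⟨n, hn, c, hc, rfl⟩ := mem_sup_of_le_normalizer hX3N htZ
    have hcT : c ∈ T := by
      have := mul_mem (inv_mem (hΦT hn)) ht
      rwa [inv_mul_cancel_left] at this
    have hdis : Disjoint T X3 := IsPGroup.disjoint_of_ne 2 3 (by norm_num) T X3 hT hX3p
    have hc1 : c = 1 := by
      have : c ∈ T ⊓ X3 := ⟨hcT, hc⟩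
      rw [hdis.eq_bot] at this
      exact this
    rw [hc1, mul_one]
    exact hn
  -- `x` acts nontrivially on `T/Φ`
  obtain ⟨e, heT, heΦ⟩ : ∃ e ∈ T, x * e * x⁻¹ * e⁻¹ ∉ Φ := by
    by_contra hcon
    push Not at hcon
    have h1 := comm_zpowers_le_frat T x hx hcon
    have h2 : zpowers x ≤ centralizer (T : Set G) := by
      apply le_centralizer_of_comm_le_frat (zpowers_le.2 hx) _ _ h1
      · obtain ⟨m, hm⟩ := IsPGroup.iff_card.1 hT
        rw [Nat.card_zpowers, hkx, hm]
        exact Nat.Coprime.pow _ _ (by norm_num)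
      · exact IsNilpotent.to_isSolvable (h := hT.isNilpotent)
    exact hxC (h2 (mem_zpowers x))
  -- the section
  have hZn : (Z.subgroupOf M).Normal := normal_in_normalizer
  let π : M →* M ⧸ Z.subgroupOf M := QuotientGroup.mk' _
  have hπ1 : ∀ g : M, (g : G) ∈ Z → π g = 1 := by
    intro g hg
    exact (QuotientGroup.eq_one_iff g).2 (mem_subgroupOf.2 hg)
  have hπ1' : ∀ g : M, π g = 1 → (g : G) ∈ Z := by
    intro g hg
    exact mem_subgroupOf.1 ((QuotientGroup.eq_one_iff g).1 hg)
  have hπeq : ∀ a b : M, (a : G) * (b : G)⁻¹ ∈ Z → π a = π b := by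
    intro a b h
    have h1 : π (a * b⁻¹) = 1 := hπ1 _ h
    rw [map_mul, map_inv] at h1
    exact mul_inv_eq_one.1 h1
  let E : Subgroup (M ⧸ Z.subgroupOf M) := (T.subgroupOf M).map π
  have hE : ∀ a ∈ E, ∃ t : M, (t : G) ∈ T ∧ π t = a := by
    rintro a ⟨t, ht, rfl⟩
    exact ⟨t, mem_subgroupOf.1 ht, rfl⟩
  have hE' : ∀ t : M, (t : G) ∈ T → π t ∈ E := fun t ht => ⟨t, mem_subgroupOf.2 ht, rfl⟩
  let x' : M := ⟨x, hxM⟩
  let s' : M := ⟨s, hsM⟩
  let e' : M := ⟨e, hTM heT⟩
  obtain ⟨w, hwE, hw1, hsw, hprod⟩ := exists_fixed_vec E (π x') (π s')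
    (by
      intro a ha b hb
      obtain ⟨t, ht, rfl⟩ := hE a ha
      obtain ⟨u, hu, rfl⟩ := hE b hb
      rw [← map_mul, ← map_mul]
      apply hπeq
      apply le_sup_left (a := Φ)
      apply commutator_le_frattiniOf hT
      have e1 : ((t * u : M) : G) * ((u * t : M) : G)⁻¹ = ⁅(t : G), (u : G)⁆ := by
        rw [commutatorElement_def]
        simp only [Subgroup.coe_mul]
        group
      rw [e1]
      exact commutator_mem_commutator ht hu)
    (by
      intro a ha
      obtain ⟨t, ht, rfl⟩ := hE a ha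
      rw [← map_mul]
      apply hπ1
      apply le_sup_left (a := Φ)
      have := pow_mem_frattiniOf hT ht
      rwa [pow_two] at this)
    (by
      intro a ha
      obtain ⟨t, ht, rfl⟩ := hE a ha
      rw [← map_inv, ← map_mul, ← map_mul]
      exact hE' _ (conj_mem_of_mem_normalizer hx ht))
    (by
      intro a ha
      obtain ⟨t, ht, rfl⟩ := hE a ha
      rw [← map_inv, ← map_mul, ← map_mul]
      exact hE' _ (conj_mem_of_mem_normalizer' hx ht))
    (by
      intro a ha
      obtain ⟨t, ht, rfl⟩ := hE a ha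
      rw [← map_inv, ← map_mul, ← map_mul]
      exact hE' _ (conj_mem_of_mem_normalizer hs ht))
    (by
      rw [← map_inv, ← map_inv, ← map_mul, ← map_mul]
      congr 1
      exact Subtype.ext hsx)
    (by
      rw [← map_pow]
      apply hπ1
      apply le_sup_right (b := X3)
      exact mem_zpowers _)
    ks
    (by
      rw [← map_pow]
      have : s' ^ (2 ^ ks) = 1 := by
        apply Subtype.ext
        show s ^ (2 ^ ks) = 1
        rw [← hks, pow_orderOf_eq_one]
      rw [this, map_one])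
    (π e') (hE' e' heT)
    (by
      intro h
      rw [← map_inv, ← map_mul, ← map_mul] at h
      have h1 : π (x' * e' * x'⁻¹ * e'⁻¹) = 1 := by
        rw [map_mul, h, map_inv, mul_inv_cancel]
      have h2 := hπ1' _ h1
      exact heΦ (hTZ _ (mul_mem (conj_mem_of_mem_normalizer hx heT) (inv_mem heT)) h2))
  have hwsq : w * w = 1 := by
    obtain ⟨t, ht, rfl⟩ := hE w hwE
    rw [← map_mul]
    apply hπ1
    apply le_sup_left (a := Φ)
    have := pow_mem_frattiniOf hT ht
    rwa [pow_two] at this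
  have hinv : Involves (Equiv.Perm (Fin 4)) (M ⧸ Z.subgroupOf M) :=
    Cfsg.Agent.Lib.Helper61.S4Config.involves_s4 (π s') (π x') w
      (by
        rw [← map_inv, ← map_inv, ← map_mul, ← map_mul]
        congr 1
        exact Subtype.ext hsx)
      (by
        rw [← map_pow]
        apply hπ1
        apply le_sup_right (b := X3)
        exact mem_zpowers _)
      hwsq hsw hprod hw1
  exact Cfsg.Agent.Lib.Helper50.involves_of_section M π (QuotientGroup.mk'_surjective _) hinv

end Cfsg.Agent.Lib.Helper47.S4Inv
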