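import Mathlib
import Cfsg.Prelude.Def_LocalEven
import Cfsg.Agent.Lib.Helper50.Involves

set_option autoImplicit false
set_option linter.unusedVariables false

/-! # From `S4` involved in `G` to `S3` involved in `N(T)/C(T)` -/

namespace Cfsg.Agent.Lib.Helper47.S4Inv

open Cfsg Subgroup

/-- index of the pairing of `Fin 4` containing `{a, b}` -/
def pairIdx (a b : Fin 4) : Fin 3 :=
  match a, b with
  | 0, 1 => 0 | 1, 0 => 0 | 2, 3 => 0 | 3, 2 => 0
  | 0, 2 => 1 | 2, 0 => 1 | 1, 3 => 1 | 3, 1 => 1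
  | _, _ => 2

def pairAct (σ : Equiv.Perm (Fin 4)) (i : Fin 3) : Fin 3 := pairIdx (σ 0) (σ i.succ)

theorem pairAct_mul : ∀ (σ τ : Equiv.Perm (Fin 4)) (i : Fin 3),
    pairAct (σ * τ) i = pairAct σ (pairAct τ i) := by decide +kernel

theorem pairAct_one : ∀ i : Fin 3, pairAct 1 i = i := by decide

/-- the surjection `S4 → S3` -/
def s4s3 : Equiv.Perm (Fin 4) →* Equiv.Perm (Fin 3) where
  toFun σ := ⟨pairAct σ, pairAct σ⁻¹, fun i => by rw [← pairAct_mul, inv_mul_cancel, pairAct_one],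
    fun i => by rw [← pairAct_mul, mul_inv_cancel, pairAct_one]⟩
  map_one' := Equiv.ext pairAct_one
  map_mul' σ τ := Equiv.ext (pairAct_mul σ τ)

theorem s4s3_surj : ∀ ρ : Equiv.Perm (Fin 3), ∃ σ, s4s3 σ = ρ := by decide +kernel

theorem s4s3_ker_sq : ∀ v : Equiv.Perm (Fin 4), s4s3 v = 1 → v ^ 2 = 1 := by decide +kernel

theorem s4s3_cent : ∀ σ : Equiv.Perm (Fin 4), (∀ v, s4s3 v = 1 → σ * v = v * σ) → s4s3 σ = 1 := by
  decide +kernel

/-- a hom killing the kernel of another one gives involvement in the target of the latter -/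
theorem involves_of_ker_le {M Y H : Type*} [Group M] [Group Y] [Group H] (ψ : M →* Y) (θ : M →* H)
    (hθ : Function.Surjective θ) (hk : ψ.ker ≤ θ.ker) : Involves H Y := by
  refine Cfsg.Agent.Lib.Helper50.involves_of_surjective ψ.range
    ((QuotientGroup.lift ψ.ker θ hk).comp (QuotientGroup.quotientKerEquivRange ψ).symm.toMonoidHom) ?_
  intro h
  obtain ⟨m, rfl⟩ := hθ h
  refine ⟨QuotientGroup.quotientKerEquivRange ψ (QuotientGroup.mk m), ?_⟩
  show QuotientGroup.lift ψ.ker θ hk ((QuotientGroup.quotientKerEquivRange ψ).symm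
    (QuotientGroup.quotientKerEquivRange ψ (QuotientGroup.mk m))) = θ m
  rw [MulEquiv.symm_apply_apply]
  rfl

/-- P1 -/
theorem forward {G : Type*} [Group G] [Finite G] (h : Involves (Equiv.Perm (Fin 4)) G) :
    ∃ T : Subgroup G, IsPGroup 2 ↥T ∧ Involves (Equiv.Perm (Fin 3))
      (↥(normalizer (T : Set G)) ⧸ (centralizer (T : Set G)).subgroupOf (normalizer (T : Set G))) := by
  have : Fact (Nat.Prime 2) := ⟨Nat.prime_two⟩
  obtain ⟨K, f, hf⟩ := Cfsg.Agent.Lib.Helper50.exists_surjective_of_involves h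
  let θ : K →* Equiv.Perm (Fin 3) := s4s3.comp f
  have hθ : Function.Surjective θ := by
    intro ρ
    obtain ⟨σ, hσ⟩ := s4s3_surj ρ
    obtain ⟨k, hk⟩ := hf σ
    exact ⟨k, by show s4s3 (f k) = ρ; rw [hk, hσ]⟩
  obtain ⟨T0⟩ : Nonempty (Sylow 2 θ.ker) := inferInstance
  set T' : Subgroup K := (T0 : Subgroup θ.ker).map θ.ker.subtype with hT'
  have hT'p : IsPGroup 2 T' := T0.2.map _
  have hfr : normalizer (T' : Set K) ⊔ θ.ker = ⊤ := Sylow.normalizer_sup_eq_top T0
  -- `f T' = V4`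
  have hV4 : IsPGroup 2 s4s3.ker := by
    intro v
    refine ⟨1, ?_⟩
    apply Subtype.ext
    have := s4s3_ker_sq v.1 v.2
    simpa using this
  let f' : θ.ker →* s4s3.ker := (f.comp θ.ker.subtype).codRestrict s4s3.ker (fun k => k.2)
  have hf' : Function.Surjective f' := by
    intro v
    obtain ⟨k, hk⟩ := hf v.1
    have hkθ : k ∈ θ.ker := by
      rw [MonoidHom.mem_ker]
      show s4s3 (f k) = 1
      rw [hk]
      exact v.2
    exact ⟨⟨k, hkθ⟩, Subtype.ext hk⟩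
  have htop : (⊤ : Subgroup s4s3.ker) = (T0 : Subgroup θ.ker).map f' := by
    have := (T0.mapSurjective hf').3 (hV4.to_subgroup ⊤) le_top
    rw [this, Sylow.coe_mapSurjective]
  have hcl1 : ∀ v, s4s3 v = 1 → ∃ t ∈ T', f t = v := by
    intro v hv
    have h1 : (⟨v, hv⟩ : s4s3.ker) ∈ (T0 : Subgroup θ.ker).map f' := htop ▸ mem_top _
    obtain ⟨t, ht, htv⟩ := h1
    exact ⟨t.1, ⟨t, ht, rfl⟩, congrArg Subtype.val htv⟩
  -- `θ` restricted to the normalizer is onto
  let θ' : ↥(normalizer (T' : Set K)) →* Equiv.Perm (Fin 3) := θ.comp (normalizer (T' : Set K)).subtype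
  have hθ' : Function.Surjective θ' := by
    intro ρ
    obtain ⟨k, hk⟩ := hθ ρ
    obtain ⟨n, hn, v, hv, hnv⟩ := Subgroup.mem_sup_of_normal_right.1 (hfr ▸ mem_top k :
      k ∈ normalizer (T' : Set K) ⊔ θ.ker)
    refine ⟨⟨n, hn⟩, ?_⟩
    show θ n = ρ
    rw [← hk, ← hnv, map_mul, MonoidHom.mem_ker.1 hv, mul_one]
  set T : Subgroup G := T'.map K.subtype with hT
  refine ⟨T, hT'p.map _, ?_⟩
  have hNN : ∀ m : ↥(normalizer (T' : Set K)), ((m : K) : G) ∈ normalizer (T : Set G) := by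
    intro m
    exact Subgroup.le_normalizer_map K.subtype ⟨m.1, m.2, rfl⟩
  let ι : ↥(normalizer (T' : Set K)) →* ↥(normalizer (T : Set G)) :=
    (K.subtype.comp (normalizer (T' : Set K)).subtype).codRestrict _ hNN
  refine involves_of_ker_le ((QuotientGroup.mk' _).comp ι) θ' hθ' ?_
  intro m hm
  rw [MonoidHom.mem_ker] at hm ⊢
  have h1 : ι m ∈ (centralizer (T : Set G)).subgroupOf (normalizer (T : Set G)) :=
    (QuotientGroup.eq_one_iff _).1 hm
  have h2 : ((m : K) : G) ∈ centralizer (T : Set G) := mem_subgroupOf.1 h1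
  show s4s3 (f m.1) = 1
  apply s4s3_cent
  intro v hv
  obtain ⟨t, ht, rfl⟩ := hcl1 v hv
  rw [← map_mul, ← map_mul]
  congr 1
  apply Subtype.ext
  have h3 := mem_centralizer_iff.1 h2 (t : G) ⟨t, ht, rfl⟩
  exact h3.symm

end Cfsg.Agent.Lib.Helper47.S4Inv
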