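import Mathlib
import Cfsg.Agent.Lib.Helper1.Coprime2

set_option autoImplicit false
set_option linter.unusedVariables false

/-! # A 2-element inverting a 3-element in a group mapping onto `S3` -/

namespace Cfsg.Agent.Lib.Helper47.S4Inv

open Subgroup
open scoped commutatorElement

theorem perm3_conj : ∀ τ σ : Equiv.Perm (Fin 3), Equiv.Perm.sign τ = -1 → Equiv.Perm.sign σ = 1 →
    τ * σ * τ⁻¹ = σ⁻¹ := by decide

theorem perm3_sq : ∀ τ : Equiv.Perm (Fin 3), Equiv.Perm.sign τ = -1 → τ * τ = 1 := by decide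

theorem perm3_ne : ∀ σ : Equiv.Perm (Fin 3), Equiv.Perm.sign σ = 1 → σ ≠ 1 → σ⁻¹ * σ⁻¹ ≠ 1 := by
  decide

theorem perm3_cube : ∀ σ : Equiv.Perm (Fin 3), Equiv.Perm.sign σ = 1 → σ ^ 3 = 1 := by decide

/-- the `p`-part of an element -/
theorem exists_pow_part {K : Type*} [Group K] [Finite K] (p : ℕ) [hp : Fact p.Prime] (g : K) :
    ∃ m a : ℕ, ¬ p ∣ m ∧ orderOf (g ^ m) = p ^ a := by
  have h0 : orderOf g ≠ 0 := (orderOf_pos g).ne'
  obtain ⟨a, m, hm, h⟩ := Nat.exists_eq_pow_mul_and_not_dvd h0 p hp.out.ne_one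
  refine ⟨m, a, hm, ?_⟩
  have hm0 : m ≠ 0 := by
    rintro rfl
    rw [mul_zero] at h
    exact h0 h
  rw [orderOf_pow_of_dvd hm0 (by rw [h]; exact Dvd.intro_left _ rfl), h,
    Nat.mul_div_cancel _ (Nat.pos_of_ne_zero hm0)]

/-- P2a -/
theorem exists_pair_of_surj {K : Type*} [Group K] [Finite K] (φ : K →* Equiv.Perm (Fin 3))
    (hφ : Function.Surjective φ) :
    ∃ x s : K, s * x * s⁻¹ = x⁻¹ ∧ φ x ≠ 1 ∧ (∃ k, orderOf x = 3 ^ k) ∧ (∃ k, orderOf s = 2 ^ k) := by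
  have : Fact (Nat.Prime 2) := ⟨Nat.prime_two⟩
  have : Fact (Nat.Prime 3) := ⟨Nat.prime_three⟩
  let K0 : Subgroup K := (alternatingGroup (Fin 3)).comap φ
  have hK0 : ∀ g, g ∈ K0 ↔ Equiv.Perm.sign (φ g) = 1 := fun g => Iff.rfl
  -- a 3-element not in the kernel
  obtain ⟨c0, hc0⟩ := hφ (finRotate 3)
  obtain ⟨m, a, hm, hcm⟩ := exists_pow_part 3 c0
  set c := c0 ^ m with hc
  have hsr : Equiv.Perm.sign (finRotate 3) = 1 := by decide
  have hcK0 : c ∈ K0 := by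
    rw [hK0, hc, map_pow, hc0, map_pow, hsr, one_pow]
  have hφc : φ c ≠ 1 := by
    rw [hc, map_pow, hc0]
    intro h
    have h1 : orderOf (finRotate 3) ∣ m := orderOf_dvd_of_pow_eq_one h
    have h2 : orderOf (finRotate 3) = 3 := by
      rw [orderOf_eq_prime_iff]
      decide
    rw [h2] at h1
    exact hm h1
  have hcp : IsPGroup 3 (zpowers (⟨c, hcK0⟩ : K0)) := by
    apply IsPGroup.of_card (n := a)
    rw [Nat.card_zpowers, ← hcm]
    exact (Subgroup.orderOf_mk c hcK0)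
  obtain ⟨P, hP⟩ := hcp.exists_le_sylow
  set P' : Subgroup K := (P : Subgroup K0).map K0.subtype with hP'
  have hP'p : IsPGroup 3 P' := P.2.map _
  have hcP' : c ∈ P' := ⟨⟨c, hcK0⟩, hP (mem_zpowers _), rfl⟩
  have hP'K0 : P' ≤ K0 := map_subtype_le _
  -- Frattini
  have hfr : normalizer (P' : Set K) ⊔ K0 = ⊤ := Sylow.normalizer_sup_eq_top P
  obtain ⟨g0, hg0⟩ := hφ (Equiv.swap 0 1)
  obtain ⟨n, hn, k0, hk0, hnk⟩ := Subgroup.mem_sup_of_normal_right.1 (hfr ▸ mem_top g0 :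
    g0 ∈ normalizer (P' : Set K) ⊔ K0)
  have hsn : Equiv.Perm.sign (φ n) = -1 := by
    have h1 : Equiv.Perm.sign (φ g0) = -1 := by rw [hg0]; decide
    rw [← hnk, map_mul, map_mul, (hK0 k0).1 hk0, mul_one] at h1
    exact h1
  obtain ⟨m2, a2, hm2, hs2⟩ := exists_pow_part 2 n
  set s := n ^ m2 with hs
  have hsN : s ∈ normalizer (P' : Set K) := pow_mem hn m2
  have hss : Equiv.Perm.sign (φ s) = -1 := by
    rw [hs, map_pow, map_pow, hsn]
    exact Odd.neg_one_pow (Nat.not_even_iff_odd.1 (fun h => hm2 h.two_dvd))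
  have hφss : φ (s ^ 2) = 1 := by
    rw [map_pow, pow_two]
    exact perm3_sq _ hss
  -- coprime action of `s ^ 2`
  set A := zpowers (s ^ 2) with hA
  have hAN : A ≤ normalizer (P' : Set K) := zpowers_le.2 (pow_mem hsN 2)
  have hAφ : ∀ b ∈ A, φ b = 1 := by
    intro b hb
    obtain ⟨i, rfl⟩ := mem_zpowers_iff.1 hb
    rw [map_zpow, hφss, one_zpow]
  have hcop : (Nat.card A).Coprime (Nat.card P') := by
    obtain ⟨j, hj⟩ := IsPGroup.iff_card.1 hP'p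
    have h1 : Nat.card A ∣ 2 ^ a2 := by
      rw [Nat.card_zpowers, ← hs2]
      exact orderOf_pow_dvd 2
    rw [hj]
    exact Nat.Coprime.coprime_dvd_left h1 (Nat.Coprime.pow _ _ (by norm_num))
  obtain ⟨u, hu, y, hy, hcuy⟩ := Cfsg.Agent.Lib.Helper1.exists_commutator_mul_fixed A P' hAN hcop
    (Or.inr (IsNilpotent.to_isSolvable (h := hP'p.isNilpotent))) c hcP'
  have hφu : φ u = 1 := by
    have h1 : ⁅P', A⁆ ≤ φ.ker := by
      rw [commutator_le]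
      intro g hg b hb
      rw [MonoidHom.mem_ker, map_commutatorElement, hAφ b hb, commutatorElement_one_right]
    exact h1 hu
  have hφy : φ y ≠ 1 := by
    rw [hcuy, map_mul, hφu, one_mul] at hφc
    exact hφc
  have hyP' : y ∈ P' := hy.1
  have hys : s ^ 2 * y = y * s ^ 2 := by
    have := mem_centralizer_iff.1 hy.2 (s ^ 2) (mem_zpowers _)
    exact this
  have hsy : s * y * s⁻¹ ∈ P' := (mem_normalizer_iff.1 hsN y).1 hyP'
  refine ⟨y⁻¹ * (s * y * s⁻¹), s, ?_, ?_, ?_, ⟨a2, hs2⟩⟩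
  · have h1 : s * (s * y * s⁻¹) * s⁻¹ = y := by
      have : s * (s * y * s⁻¹) * s⁻¹ = (s ^ 2 * y) * (s ^ 2)⁻¹ := by rw [pow_two]; group
      rw [this, hys, mul_inv_cancel_right]
    calc s * (y⁻¹ * (s * y * s⁻¹)) * s⁻¹ = (s * y * s⁻¹)⁻¹ * (s * (s * y * s⁻¹) * s⁻¹) := by group
      _ = (s * y * s⁻¹)⁻¹ * y := by rw [h1]
      _ = (y⁻¹ * (s * y * s⁻¹))⁻¹ := by group
  · have hsgn : Equiv.Perm.sign (φ y) = 1 := (hK0 y).1 (hP'K0 hyP')
    rw [map_mul, map_mul, map_mul, map_inv, map_inv, perm3_conj _ _ hss hsgn]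
    exact perm3_ne _ hsgn hφy
  · have hxP' : y⁻¹ * (s * y * s⁻¹) ∈ P' := mul_mem (inv_mem hyP') hsy
    obtain ⟨k, hk⟩ := hP'p ⟨_, hxP'⟩
    have h1 : (y⁻¹ * (s * y * s⁻¹)) ^ 3 ^ k = 1 := by
      have := congrArg Subtype.val hk
      simpa using this
    obtain ⟨j, -, hj⟩ := (Nat.dvd_prime_pow Nat.prime_three).1 (orderOf_dvd_of_pow_eq_one h1)
    exact ⟨j, hj⟩

end Cfsg.Agent.Lib.Helper47.S4Inv
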