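import Mathlib
import Cfsg.Prelude.Def_LocalEven
import Cfsg.Agent.Lib.Helper50.Involves
import Cfsg.Agent.Lib.Helper47.S4Inv.P2a

set_option autoImplicit false
set_option linter.unusedVariables false

/-! # From `S3` involved in `N(T)/C(T)` to an inverted 3-element -/

namespace Cfsg.Agent.Lib.Helper47.S4Inv

open Cfsg Subgroup

/-- P2 -/
theorem exists_pair {G : Type*} [Group G] [Finite G] (T : Subgroup G)
    (h : Involves (Equiv.Perm (Fin 3))
      (↥(normalizer (T : Set G)) ⧸ (centralizer (T : Set G)).subgroupOf (normalizer (T : Set G)))) :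
    ∃ x s : G, x ∈ normalizer (T : Set G) ∧ s ∈ normalizer (T : Set G) ∧ s * x * s⁻¹ = x⁻¹ ∧
      x ∉ centralizer (T : Set G) ∧ x ^ 3 ∈ centralizer (T : Set G) ∧
      (∃ k, orderOf x = 3 ^ k) ∧ (∃ k, orderOf s = 2 ^ k) := by
  obtain ⟨Kb, f, hf⟩ := Cfsg.Agent.Lib.Helper50.exists_surjective_of_involves h
  let π : ↥(normalizer (T : Set G)) →* (↥(normalizer (T : Set G)) ⧸
    (centralizer (T : Set G)).subgroupOf (normalizer (T : Set G))) := QuotientGroup.mk' _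
  let φ : ↥(Kb.comap π) →* Equiv.Perm (Fin 3) := f.comp (π.subgroupComap Kb)
  have hφ : Function.Surjective φ :=
    hf.comp (π.subgroupComap_surjective_of_surjective Kb (QuotientGroup.mk'_surjective _))
  have hker : ∀ k : ↥(Kb.comap π), ((k : ↥(normalizer (T : Set G))) : G) ∈ centralizer (T : Set G) →
      φ k = 1 := by
    intro k hk
    have h1 : π.subgroupComap Kb k = 1 := by
      apply Subtype.ext
      show π (k : ↥(normalizer (T : Set G))) = 1
      exact (QuotientGroup.eq_one_iff _).2 (mem_subgroupOf.2 hk)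
    show f (π.subgroupComap Kb k) = 1
    rw [h1, map_one]
  obtain ⟨x0, s, hsx, hx0, ⟨k, hk⟩, ⟨k2, hs⟩⟩ := exists_pair_of_surj φ hφ
  have hex : ∃ i : ℕ, (((x0 ^ 3 ^ i : ↥(Kb.comap π)) : ↥(normalizer (T : Set G))) : G) ∈
      centralizer (T : Set G) := by
    refine ⟨k, ?_⟩
    rw [← hk, pow_orderOf_eq_one]
    exact one_mem _
  classical
  set i := Nat.find hex with hi
  have hi1 : (((x0 ^ 3 ^ i : ↥(Kb.comap π)) : ↥(normalizer (T : Set G))) : G) ∈
      centralizer (T : Set G) := Nat.find_spec hex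
  have hi0 : i ≠ 0 := by
    intro h0
    rw [h0, pow_zero, pow_one] at hi1
    exact hx0 (hker x0 hi1)
  obtain ⟨j, hj⟩ := Nat.exists_eq_succ_of_ne_zero hi0
  have hj1 : (((x0 ^ 3 ^ j : ↥(Kb.comap π)) : ↥(normalizer (T : Set G))) : G) ∉
      centralizer (T : Set G) := Nat.find_min hex (by rw [← hi, hj]; exact Nat.lt_succ_self j)
  refine ⟨(((x0 ^ 3 ^ j : ↥(Kb.comap π)) : ↥(normalizer (T : Set G))) : G),
    ((s : ↥(normalizer (T : Set G))) : G), (x0 ^ 3 ^ j : ↥(Kb.comap π)).1.2, s.1.2, ?_, hj1, ?_, ?_,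
    ⟨k2, ?_⟩⟩
  · have h1 : s * (x0 ^ 3 ^ j) * s⁻¹ = (x0 ^ 3 ^ j)⁻¹ := by
      rw [← conj_pow, hsx, inv_pow]
    have h2 := congrArg (fun z : ↥(Kb.comap π) => ((z : ↥(normalizer (T : Set G))) : G)) h1
    simpa using h2
  · have h1 : (x0 ^ 3 ^ j) ^ 3 = x0 ^ 3 ^ i := by
      rw [← pow_mul, hj, pow_succ]
    rw [← h1] at hi1
    simpa using hi1
  · have h1 : (x0 ^ 3 ^ j) ^ 3 ^ k = 1 := by
      rw [← pow_mul, mul_comm, pow_mul, ← hk, pow_orderOf_eq_one, one_pow]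
    have h2 : orderOf (x0 ^ 3 ^ j) ∣ 3 ^ k := orderOf_dvd_of_pow_eq_one h1
    obtain ⟨l, -, hl⟩ := (Nat.dvd_prime_pow Nat.prime_three).1 h2
    refine ⟨l, ?_⟩
    rw [← hl, Subgroup.orderOf_coe, Subgroup.orderOf_coe]
  · rw [← hs, Subgroup.orderOf_coe, Subgroup.orderOf_coe]

end Cfsg.Agent.Lib.Helper47.S4Inv
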